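import Cfsg.Agent.H54.T5Base

/-! LD5, job TA: root groups of order two with an asymmetric pair. -/

set_option autoImplicit false

open Matrix Cfsg Cfsg.Geo H19 H41.LD H54.T5

namespace H85.LD

universe u

variable {F : Type u} [Field F] {n : ℕ} {T : (Fin n → F) → (Fin n → F) → Prop}
  {u w x φ ψ χ η : Fin n → F}

/-- Every flag has a second centre and a second axis which are not incident. -/
def Cfg (T : (Fin n → F) → (Fin n → F) → Prop) : Prop :=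
  ∀ u φ, T u φ → u ≠ 0 → φ ≠ 0 → ∃ x φ', T x φ ∧ T u φ' ∧ φ' ⬝ᵥ x ≠ 0

theorem Cfg.swap (h : Cfg T) : Cfg fun φ u => T u φ := fun φ u h1 h2 h3 =>
  let ⟨x, φ', a, b, c⟩ := h u φ h1 h3 h2; ⟨φ', x, b, a, by rwa [dotProduct_comm]⟩

theorem cfg_of {P : Subgroup (GL (Fin n) F)} {k : Subfield F} (hC : CJ P k) (hA : Asym P) :
    Cfg (TV P) := fun u φ h hu hφ => by
  obtain ⟨⟨u0, φ0⟩, ⟨x0, ψ0⟩, h1, h2, u1, u2, a1, a2⟩ := hA
  have h3 : TV P ((φ0 ⬝ᵥ x0) • u0) ψ0 := (tb P).commL h1 h2 a2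
  obtain ⟨g, hg, a, -, a0, e⟩ := hC _ _ h3 (smul_ne_zero a1 u1) u2 h hu hφ
  rw [← N_cg, ← N_smul_left a u φ] at e
  obtain ⟨c, c0, e1, e2⟩ := exists_smul_of_N e (smul_ne_zero a0 hu) hφ
  simp only [cg] at e1 e2
  have b1 := TV.conj hg (show TV P x0 ψ0 from h2)
  have b2 := TV.conj hg ((tb P).rescale (show TV P u0 φ0 from h1) a1)
  rw [e2, ← (tb P).smul_iff] at b1
  rw [e1, smul_smul, (tb P).smul_iff] at b2
  refine ⟨_, _, b1, b2, ?_⟩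
  have := cg_dot g (u0, (φ0 ⬝ᵥ x0)⁻¹ • φ0) (x0, ψ0)
  simp only [cg] at this
  rw [smul_dotProduct, dotProduct_smul, this]
  simp [a0, c0, a1]

/-- The standing hypotheses of job TA. -/
structure TA (T : (Fin n → F) → (Fin n → F) → Prop) : Prop where
  tb : TB T
  two : (2 : F) = 0
  sw : Sw T
  ts : ∀ {u φ} {a : F}, T u φ → u ≠ 0 → φ ≠ 0 → T (a • u) φ → a = 0 ∨ a = 1
  cfg : Cfg T
  far : ∀ {u φ}, T u φ → u ≠ 0 → φ ≠ 0 → ∃ w ψ, T w ψ ∧ φ ⬝ᵥ w * ψ ⬝ᵥ u ≠ 0 ∧ φ ⬝ᵥ w * ψ ⬝ᵥ u ≠ 1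

namespace TA

theorem swap (h : TA T) : TA fun φ u => T u φ where
  tb := h.tb.swap
  two := h.two
  sw := h.sw.swap h.tb
  ts h1 h2 h3 h4 := h.ts h1 h3 h2 ((h.tb.smul_iff _).2 h4)
  cfg := h.cfg.swap
  far h1 h2 h3 := by
    obtain ⟨w, ψ, a, b⟩ := h.far h1 h3 h2
    exact ⟨ψ, w, a, by rwa [mul_comm, dotProduct_comm w, dotProduct_comm _ ψ]⟩

theorem inj (h : TA T) (h1 : T u φ) (h2 : T w ψ) (a0 : φ ⬝ᵥ w * ψ ⬝ᵥ u ≠ 0)
    (a1 : φ ⬝ᵥ w * ψ ⬝ᵥ u ≠ 1) (h3 : T u χ) (e : χ ⬝ᵥ w = 0) : χ = 0 := by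
  by_contra hc
  have := h.tb.commL h1 (h.tb.commR h3 h2 e) (by simp [h.tb.orth h3])
  rw [← h.tb.smul_iff, smul_smul, mul_comm] at this
  exact (h.ts h3 (right_ne (right_ne_zero_of_mul a0)) hc this).elim a0 a1

/-- The torus of an opposite pair. -/
theorem tor (h : TA T) (h1 : T u φ) (h2 : T u χ) (h3 : T u η) (h4 : T w ψ) (a1 : φ ⬝ᵥ w ≠ 0)
    (a2 : χ ⬝ᵥ w ≠ 0) (a3 : ψ ⬝ᵥ u ≠ 0) :
    ∃ κ s t : F, κ ^ 2 * φ ⬝ᵥ w = χ ⬝ᵥ w ∧ T u (κ • η + s • φ + t • χ) := by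
  obtain ⟨c, c1, c2⟩ := h.sw u φ w ψ h1 h4 a1 a3
  obtain ⟨d, d1, d2⟩ := h.sw u χ w ψ h2 h4 a2 a3
  have c0 : c ≠ 0 := by rintro rfl; exact a3 (by simpa using c1.symm)
  have d0 : d ≠ 0 := by rintro rfl; exact a3 (by simpa using d1.symm)
  have o1 := h.tb.orth h1
  have o2 := h.tb.orth h2
  have o3 := h.tb.orth h3
  have o4 := h.tb.orth h4
  have e := h.tb.conj d2 (h.tb.conj c2 h3)
  have t2 := h.two
  refine ⟨c / d, -(c / d * (η ⬝ᵥ w / φ ⬝ᵥ w)), c / d * (c * η ⬝ᵥ w / (d * χ ⬝ᵥ w)),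
    by field_simp; linear_combination c1 - d1, ?_⟩
  rw [show (c / d) • η + -(c / d * (η ⬝ᵥ w / φ ⬝ᵥ w)) • φ +
      (c / d * (c * η ⬝ᵥ w / (d * χ ⬝ᵥ w))) • χ =
      (c / d) • (η - (η ⬝ᵥ w / φ ⬝ᵥ w) • φ + (c * η ⬝ᵥ w / (d * χ ⬝ᵥ w)) • χ) by module,
    ← h.tb.smul_iff]
  convert e using 1
  · have r : (d * χ ⬝ᵥ w)⁻¹ * χ ⬝ᵥ w = d⁻¹ := by field_simp
    simp only [add_dotProduct, smul_dotProduct, dotProduct_add, dotProduct_smul, o1, o2, o4,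
      smul_eq_mul, mul_zero, add_zero, zero_add, inv_mul_cancel₀ a3, r, one_mul]
    match_scalars
    · linear_combination -2 * t2
    · linear_combination (-c - d) * t2 + c * mul_inv_cancel₀ d0 * -1
  · simp only [add_dotProduct, smul_dotProduct, dotProduct_add, dotProduct_smul, o1, o3, o4,
      smul_eq_mul, sub_dotProduct]
    match_scalars <;> field_simp <;> ring

theorem val (h : TA T) (h1 : T u φ) (hu : u ≠ 0) (hφ : φ ≠ 0) (h2 : T x φ) (h3 : T u χ) :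
    χ ⬝ᵥ x = 0 ∨ χ ⬝ᵥ x = 1 := h.ts h1 hu hφ (h.tb.commL h3 h2 (h.tb.orth h1))

/-- A centre has three axes. -/
theorem four (h : TA T) (h1 : T u φ) (hu : u ≠ 0) (hφ : φ ≠ 0) (h2 : T x φ) (h3 : T u η)
    (a : η ⬝ᵥ x ≠ 0) (h4 : T u χ) : χ = 0 ∨ χ = φ ∨ χ = η ∨ χ = φ + η := by
  obtain ⟨w, ψ, b1, b2, b3⟩ := h.far h1 hu hφ
  have a1 := (h.val h1 hu hφ h2 h3).resolve_left a
  have key : ∀ χ, T u χ → χ ⬝ᵥ x = 0 → χ = 0 ∨ χ = φ := fun χ h4 e => by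
    refine or_iff_not_imp_left.2 fun hc => ?_
    have c1 : χ ⬝ᵥ w ≠ 0 := fun e => hc (h.inj h1 b1 b2 b3 h4 e)
    obtain ⟨κ, s, t, d1, d2⟩ := h.tor h1 h4 h3 b1 (left_ne_zero_of_mul b2) c1
      (right_ne_zero_of_mul b2)
    have d3 := h.val h1 hu hφ h2 d2
    simp only [add_dotProduct, smul_dotProduct, a1, e, h.tb.orth h2, smul_eq_mul, mul_zero,
      add_zero, mul_one] at d3
    rcases d3 with rfl | rfl
    · exact absurd (by simpa using d1.symm) c1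
    · exact sub_eq_zero.1 (h.inj h1 b1 b2 b3 (h.tb.subR h4 h1) (by simp [← d1]))
  rcases h.val h1 hu hφ h2 h4 with e | e
  · exact (key χ h4 e).imp_right .inl
  · rcases key _ (h.tb.subR h4 h3) (by simp [e, a1]) with e | e
    · exact .inr (.inr (.inl (sub_eq_zero.1 e)))
    · exact .inr (.inr (.inr (sub_eq_iff_eq_add.1 e)))

/-- An axis has three centres. -/
theorem four' (h : TA T) (h1 : T u φ) (hu : u ≠ 0) (hφ : φ ≠ 0) (h2 : T x φ) (h3 : T u η)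
    (a : η ⬝ᵥ x ≠ 0) (h4 : T w φ) : w = 0 ∨ w = u ∨ w = x ∨ w = u + x :=
  h.swap.four h1 hφ hu h3 h2 (by rwa [dotProduct_comm]) h4

/-- The centres of opposite axes. -/
theorem move (h : TA T) (h1 : T u φ) (h2 : T w ψ) (a1 : φ ⬝ᵥ w ≠ 0) (a2 : ψ ⬝ᵥ u ≠ 0)
    (h3 : T x φ) : ∃ c s t : F, c ≠ 0 ∧ T (c • x + s • u + t • w) ψ := by
  obtain ⟨c, c1, c2⟩ := h.sw u φ w ψ h1 h2 a1 a2
  have c0 : c ≠ 0 := by rintro rfl; exact a2 (by simpa using c1.symm)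
  have e := h.tb.conj c2 h3
  generalize ((ψ ⬝ᵥ u)⁻¹ • ψ + (c * φ ⬝ᵥ w)⁻¹ • φ) ⬝ᵥ x = s at e
  rw [show φ - (φ ⬝ᵥ (u + c • w)) • ((ψ ⬝ᵥ u)⁻¹ • ψ + (c * φ ⬝ᵥ w)⁻¹ • φ) = (-c⁻¹) • ψ by
    simp only [dotProduct_add, dotProduct_smul, h.tb.orth h1, smul_eq_mul, ← c1]
    match_scalars <;> field_simp <;> ring, ← h.tb.smul_iff] at e
  exact ⟨-c⁻¹, -c⁻¹ * s, -c⁻¹ * s * c, by simpa, by convert e using 1; module⟩

end TA

/-- The span of the centres which share an axis with `u`. -/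
def Wu (T : (Fin n → F) → (Fin n → F) → Prop) (u : Fin n → F) : Submodule F (Fin n → F) :=
  Submodule.span F {a | ∃ α, α ≠ 0 ∧ T u α ∧ T a α}

theorem mem_wu (h : TB T) {c : F} (h1 : T u φ) (hφ : φ ≠ 0) (hc : c ≠ 0) (h2 : T (c • w) φ) :
    w ∈ Wu T u :=
  inv_smul_smul₀ hc w ▸ Submodule.smul_mem _ _ (Submodule.subset_span ⟨φ, hφ, h1, h2⟩)

namespace TA

theorem near (h : TA T) (h1 : T u φ) (hu : u ≠ 0) (hφ : φ ≠ 0) (h2 : T w ψ) (a : ψ ⬝ᵥ u ≠ 0) :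
    w ∈ Wu T u := by
  by_contra hc
  have k0 : ∀ χ, T u χ → χ ≠ 0 → χ ⬝ᵥ w ≠ 0 := fun χ h3 h4 e =>
    hc (mem_wu h.tb h3 h4 a (h.tb.commL h2 h3 (by rwa [dotProduct_comm] at e ⊢)))
  obtain ⟨x, η, b1, b2, b3⟩ := h.cfg u φ h1 hu hφ
  obtain ⟨y, χ, c1, c2, c3⟩ := h.cfg u η b2 hu (left_ne b3)
  have c4 : φ ⬝ᵥ y ≠ 0 := fun e => c3 (by
    rcases h.four h1 hu hφ b1 b2 b3 c2 with rfl | rfl | rfl | rfl <;> simp [e, h.tb.orth c1])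
  obtain ⟨c, s, t, d0, d1⟩ := h.move h1 h2 (k0 φ h1 hφ) a b1
  obtain ⟨c', s', t', e0, e1⟩ := h.move b2 h2 (k0 η b2 (left_ne b3)) a c1
  obtain ⟨z, ζ, f1, f2, f3⟩ := h.cfg w ψ h2 (right_ne (k0 φ h1 hφ)) (left_ne a)
  have m : ∀ {α v}, T u α → α ≠ 0 → T v α → v ∈ Wu T u := fun a b c =>
    mem_wu h.tb a b one_ne_zero (by rwa [one_smul])
  have o1 := h.tb.orth h1
  have o2 := h.tb.orth b1
  have o3 := h.tb.orth b2
  have o4 := h.tb.orth c1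
  have k1 : ∀ {x α : Fin n → F} {c s t r : F}, T u α → α ≠ 0 → T x α → c ≠ 0 →
      c • x + s • u + t • w = r • w → ∀ β, β ⬝ᵥ u = 0 → β ⬝ᵥ x = 0 := fun {x α c s t r} p1 p2 p3 p4 p5 β p6 => by
    have q1 := congrArg (α ⬝ᵥ ·) p5
    simp only [dotProduct_add, dotProduct_smul, h.tb.orth p1, h.tb.orth p3, smul_eq_mul, mul_zero,
      zero_add] at q1
    rw [mul_right_cancel₀ (k0 α p1 p2) q1, add_eq_right] at p5
    simpa [p6, p4] using congrArg (β ⬝ᵥ ·) p5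
  have k2 : ∀ {v}, T v ψ → (∀ r : F, v ≠ r • w) → ∃ r : F, v = z + r • w := fun {v} p1 p2 => by
    rcases h.four' h2 (right_ne (k0 φ h1 hφ)) (left_ne a) f1 f2 f3 p1 with e | e | e | e
    · exact absurd (by simpa using e) (p2 0)
    · exact absurd (by simpa using e) (p2 1)
    · exact ⟨0, by simpa using e⟩
    · exact ⟨1, by rw [e, one_smul, add_comm]⟩
  obtain ⟨r, g1⟩ := k2 d1 fun r e => b3 (k1 h1 hφ b1 d0 e η o3)
  obtain ⟨r', g2⟩ := k2 e1 fun r e => c4 (k1 b2 (left_ne b3) c1 e0 e φ o1)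
  have g3 : (t' - r' - t + r) • w = c • x - c' • y + (s - s') • u := by
    linear_combination (norm := module) g2 - g1
  have g4 : t' - r' - t + r ≠ 0 := fun e => by
    rw [e, zero_smul] at g3
    simpa [o1, o2, e0, c4] using congrArg (φ ⬝ᵥ ·) g3
  refine hc (inv_smul_smul₀ g4 w ▸ Submodule.smul_mem _ _ (g3 ▸ add_mem (sub_mem ?_ ?_) ?_))
  exacts [Submodule.smul_mem _ _ (m h1 hφ b1), Submodule.smul_mem _ _ (m b2 (left_ne b3) c1),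
    Submodule.smul_mem _ _ (m h1 hφ h1)]

theorem inv (h : TA T) (h1 : T u φ) (hu : u ≠ 0) (hφ : φ ≠ 0) (h2 : T w ψ) (hx : x ∈ Wu T u)
    (a : ψ ⬝ᵥ x ≠ 0) : w ∈ Wu T u := by
  by_cases a1 : ψ ⬝ᵥ u ≠ 0
  · exact h.near h1 hu hφ h2 a1
  rw [not_not] at a1
  by_contra hc
  refine a (dot_span (fun y hy => by_contra fun b4 => hc ?_) hx)
  obtain ⟨α, b1, b2, b3⟩ := hy
  by_cases a2 : α ⬝ᵥ w = 0
  · exact mem_wu h.tb b2 b1 b4 (h.tb.commL h2 b3 a2)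
  · exact mem_wu h.tb ((h.tb.smul_iff _).1 (h.tb.commL b2 h2 a1)) (smul_ne_zero a2 (left_ne a))
      (inv_ne_zero a2) (by simpa using h.tb.rescale h2 (inv_ne_zero a2))

theorem false (h : TA T) (hn : 4 < n) (ho : Out T) (h1 : T u φ) (hu : u ≠ 0) (hφ : φ ≠ 0) :
    False := by
  obtain ⟨x, η, b1, b2, b3⟩ := h.cfg u φ h1 hu hφ
  have b4 : φ + η ≠ 0 := left_ne (w := x) (by simpa [h.tb.orth b1] using b3)
  obtain ⟨y, χ, c1, c2, c3⟩ := h.cfg u η b2 hu (left_ne b3)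
  obtain ⟨z, ζ, d1, d2, d3⟩ := h.cfg u _ (h.tb.addR h1 b2) hu b4
  suffices hs : Wu T u ≤ Submodule.span F (Set.range ![u, x, y, z]) by
    obtain ⟨w, ψ, e1, e2, v, e3, e4⟩ := ho (Wu T u) ((Submodule.ne_bot_iff _).2
      ⟨u, Submodule.subset_span ⟨φ, hφ, h1, h1⟩, hu⟩) fun e => span_ne_top hn ![u, x, y, z]
        (top_le_iff.1 (e ▸ hs))
    exact e2 (h.inv h1 hu hφ e1 e3 e4)
  refine Submodule.span_le.2 fun a ⟨α, p1, p2, p3⟩ => ?_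
  have m : ∀ i, ![u, x, y, z] i ∈ Submodule.span F (Set.range ![u, x, y, z]) := fun i =>
    Submodule.subset_span ⟨i, rfl⟩
  rcases h.four h1 hu hφ b1 b2 b3 p2 with rfl | rfl | rfl | rfl
  · exact absurd rfl p1
  · rcases h.four' h1 hu hφ b1 b2 b3 p3 with rfl | rfl | rfl | rfl
    exacts [zero_mem _, m 0, m 1, add_mem (m 0) (m 1)]
  · rcases h.four' b2 hu p1 c1 c2 c3 p3 with rfl | rfl | rfl | rfl
    exacts [zero_mem _, m 0, m 2, add_mem (m 0) (m 2)]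
  · rcases h.four' p2 hu p1 d1 d2 d3 p3 with rfl | rfl | rfl | rfl
    exacts [zero_mem _, m 0, m 3, add_mem (m 0) (m 3)]

end TA

theorem jobTA : JobTA.{u} := by
  intro F _ _ P k hP hS h2 hC hA ⟨u, φ⟩ ⟨w, ψ⟩ hx hy
  by_contra hc
  have c0 : φ ⬝ᵥ w * ψ ⬝ᵥ u ≠ 0 := fun e => hc (show φ ⬝ᵥ w * ψ ⬝ᵥ u ∈ k from e ▸ zero_mem k)
  have hu := right_ne (right_ne_zero_of_mul c0)
  have hφ := left_ne (left_ne_zero_of_mul c0)
  refine TA.false ⟨tb P, h2.1, sw_tv (by norm_num) h2.1 P,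
    fun h1 a b h3 => h2.2 _ ((hS _ h1 a b _).1 h3), cfg_of hC hA, fun {u' φ'} h1 a b => ?_⟩
    (by norm_num) (out_tv hP hx hu hφ) hx hu hφ
  obtain ⟨g, hg, c, c1, c2, e⟩ := hC _ _ hx hu hφ h1 a b
  rw [(h2.2 c c1).resolve_left c2, one_smul, ← N_cg] at e
  have e1 : cc (u', φ') (cg g (w, ψ)) = cc (u, φ) (w, ψ) := by
    rw [← cc_congr e rfl, cc_cg]
  exact ⟨_, _, Tv.conj hy hg, fun e2 => c0 (e1.symm.trans e2),
    fun e2 => hc (by rw [e1.symm.trans e2]; exact one_mem k)⟩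

end H85.LD
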