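import Cfsg.Agent.H85.LDTA
import Cfsg.Agent.H57.SLGen

/-! LD5, job TL: the linear case. -/

set_option autoImplicit false

open Matrix Cfsg Cfsg.Geo H19 H41.LD H54.T5

namespace H85.LD

universe u

variable {F : Type u} [Field F] {n : ℕ} {T : (Fin n → F) → (Fin n → F) → Prop}
  {u w x v f φ ψ χ η : Fin n → F}

/-- Systems with full root groups. -/
structure FL (T : (Fin n → F) → (Fin n → F) → Prop) : Prop where
  tb : TB T
  full : ∀ {u φ} (a : F), T u φ → T (a • u) φ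
  zero : ∀ u, T u 0 ∧ T 0 u

namespace FL

theorem swap (h : FL T) : FL fun φ u => T u φ :=
  ⟨h.tb.swap, fun a h1 => (h.tb.smul_iff a).1 (h.full a h1), fun u => (h.zero u).symm⟩

theorem ofL (h : FL T) {a : F} (ha : a ≠ 0) (h1 : T (a • u) φ) : T u φ := by
  simpa [ha] using h.full a⁻¹ h1

theorem ofR (h : FL T) {a : F} (ha : a ≠ 0) (h1 : T u (a • φ)) : T u φ := h.swap.ofL ha h1

theorem cL (h : FL T) (h1 : T u φ) (h2 : T w ψ) (h3 : ψ ⬝ᵥ u = 0) (a : φ ⬝ᵥ w ≠ 0) : T u ψ :=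
  h.ofL a (h.tb.commL h1 h2 h3)

theorem cR (h : FL T) (h1 : T u φ) (h2 : T w ψ) (h3 : φ ⬝ᵥ w = 0) (a : ψ ⬝ᵥ u ≠ 0) : T w φ :=
  h.ofR a (h.tb.commR h1 h2 h3)

/-- The axes of a centre. -/
def ax (h : FL T) (u : Fin n → F) : Submodule F (Fin n → F) where
  carrier := {φ | T u φ}
  add_mem' := h.tb.addR
  zero_mem' := (h.zero u).1
  smul_mem' a _ h1 := h.swap.full a h1

end FL

theorem exists_perp (p q : Fin 3 → F) : ∃ α : Fin 3 → F, α ≠ 0 ∧ α ⬝ᵥ p = 0 ∧ α ⬝ᵥ q = 0 := by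
  obtain ⟨α, h0, h⟩ := exists_kill (span_ne_top (by norm_num : 2 < 3) ![p, q])
  exact ⟨α, h0, h _ (Submodule.subset_span ⟨0, rfl⟩), h _ (Submodule.subset_span ⟨1, rfl⟩)⟩

/-- A full system with all elementary transvections of a three dimensional summand. -/
structure S3 (T : (Fin n → F) → (Fin n → F) → Prop) (E Φ : Matrix (Fin 3) (Fin n) F) : Prop where
  fl : FL T
  dual : Dual E Φ
  el : ∀ i j, i ≠ j → T (E i) (Φ j)

variable {E Φ : Matrix (Fin 3) (Fin n) F} {a α β : Fin 3 → F}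

namespace S3

theorem swap (h : S3 T E Φ) : S3 (fun φ u => T u φ) Φ E :=
  ⟨h.fl.swap, fun i j => by rw [dotProduct_comm, h.dual j i]; simp [eq_comm],
    fun i j e => h.el j i e.symm⟩

theorem mul (h : S3 T E Φ) (a : Fin 3 → F) : Φ *ᵥ (a ᵥ* E) = a := by
  rw [← mulVec_transpose, mulVec_mulVec, show Φ * Eᵀ = 1 from h.dual.mul, one_mulVec]

theorem dot (h : S3 T E Φ) (α a : Fin 3 → F) : (α ᵥ* Φ) ⬝ᵥ (a ᵥ* E) = α ⬝ᵥ a := by
  rw [← dotProduct_mulVec, h.mul]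

theorem row (Φ : Matrix (Fin 3) (Fin n) F) (i : Fin 3) : Pi.single i 1 ᵥ* Φ = Φ i := by
  simp [Matrix.row]

theorem el2 (h : S3 T E Φ) {i : Fin 3} (e : α i = 0) : T (E i) (α ᵥ* Φ) := by
  rw [vecMul_eq_sum]
  refine (h.fl.ax (E i)).sum_mem fun j _ => ?_
  by_cases c : i = j
  · simp [← c, e]
  · exact (h.fl.ax (E i)).smul_mem _ (h.el i j c)

theorem all3 (h : S3 T E Φ) (e : α ⬝ᵥ a = 0) : T (a ᵥ* E) (α ᵥ* Φ) := by
  by_cases a0 : a = 0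
  · simpa [a0] using (h.fl.zero _).2
  obtain ⟨i, hi⟩ := Function.ne_iff.1 a0
  replace hi : a i ≠ 0 := hi
  have h1 : T (((a i)⁻¹ • a - Pi.single i 1) ᵥ* E) (Φ i) := h.swap.el2 (by simp [hi])
  have h2 : T (E i) ((α - α i • Pi.single i 1) ᵥ* Φ) := h.el2 (by simp)
  have h3 := h.fl.tb.conj h1 h2
  rw [h.dot, h.dual.same, one_smul] at h3
  refine h.fl.ofL (inv_ne_zero hi) ?_
  convert h3 using 1
  · rw [sub_vecMul, row, smul_vecMul]; abel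
  · rw [sub_vecMul, smul_vecMul, row]
    simp [e, hi, mul_left_comm (a i)⁻¹]

theorem key (h : S3 T E Φ) (h1 : T v (α ᵥ* Φ)) (a0 : α ≠ 0) (β : Fin 3 → F) :
    T (v - (Φ *ᵥ v) ᵥ* E) (β ᵥ* Φ) := by
  have h2 := h.fl.tb.subL h1 (h.all3 (a := Φ *ᵥ v) (by
    rw [dotProduct_mulVec]; exact h.fl.tb.orth h1))
  have h3 : ∀ j, Φ j ⬝ᵥ (v - (Φ *ᵥ v) ᵥ* E) = 0 := fun j => by
    rw [← row Φ j, dotProduct_sub, h.dot, dotProduct_mulVec, sub_self]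
  generalize v - (Φ *ᵥ v) ᵥ* E = f at h2 h3 ⊢
  have st : ∀ {α : Fin 3 → F} {i j}, T f (α ᵥ* Φ) → α i ≠ 0 → i ≠ j → T f (Φ j) :=
    fun {α i j} p1 p2 p3 => h.fl.cR (h.el i j p3) p1 (h3 j) (by rw [← row E i, h.dot]; simpa)
  obtain ⟨i, hi⟩ := Function.ne_iff.1 a0
  obtain ⟨j, hj⟩ := exists_ne i
  rw [vecMul_eq_sum]
  refine (h.fl.ax f).sum_mem fun k _ => (h.fl.ax f).smul_mem _ ?_
  by_cases c : i = k
  · exact st (i := j) ((row Φ j).symm ▸ st h2 hi hj.symm) (by simp) (c ▸ hj)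
  · exact st h2 hi c

theorem top (h : S3 T E Φ) (ho : Out T) (e : (β ᵥ* Φ) ⬝ᵥ v = 0) : T v (β ᵥ* Φ) := by
  let M : Submodule F (Fin n → F) :=
    { carrier := {v | ∀ β, T (v - (Φ *ᵥ v) ᵥ* E) (β ᵥ* Φ)}
      add_mem' := fun {a b} ha hb β => by
        convert h.fl.tb.addL (ha β) (hb β) using 1
        rw [mulVec_add, add_vecMul]; abel
      zero_mem' := fun β => by simpa using (h.fl.zero _).2
      smul_mem' := fun c a ha β => by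
        simpa only [mulVec_smul, smul_vecMul, smul_sub] using h.fl.full c (ha β) }
  have hM : M = ⊤ := by
    by_contra hc
    obtain ⟨w, ψ, b1, b2, m, b3, b4⟩ := ho M ((Submodule.ne_bot_iff _).2 ⟨E 0, fun β => by
      rw [← row E 0, h.mul, sub_self]; exact (h.fl.zero _).2,
      right_ne (u := Φ 0) (by simp [h.dual.same])⟩) hc
    obtain ⟨α, c0, c1, c2⟩ := exists_perp (Φ *ᵥ m) (Φ *ᵥ w)
    rw [dotProduct_mulVec] at c2
    by_cases c : ψ ⬝ᵥ ((Φ *ᵥ m) ᵥ* E) = 0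
    · exact b2 (h.key (h.fl.cL b1 (b3 α) c2 (by simpa [c] using b4)) c0)
    · exact b2 (h.key (h.fl.cL b1 (h.all3 c1) c2 c) c0)
  simpa using h.fl.tb.addL ((hM ▸ Submodule.mem_top : v ∈ M) β)
    (h.all3 (a := Φ *ᵥ v) (by rwa [dotProduct_mulVec]))

theorem all (h : S3 T E Φ) (ho : Out T) (e : ψ ⬝ᵥ v = 0) : T v ψ := by
  obtain ⟨r, hr⟩ : ∃ r : Fin 3 → F, E *ᵥ ψ = 0 ∨ r ⬝ᵥ E *ᵥ ψ = 1 := by
    by_cases c : E *ᵥ ψ = 0
    · exact ⟨0, .inl c⟩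
    · exact (exists_dot_one c).imp fun _ => .inr
  obtain ⟨α, c0, c1, c2⟩ := exists_perp (Φ *ᵥ v) r
  obtain ⟨s, hs⟩ := exists_dot_one c0
  refine h.fl.cL (h.top ho (by rwa [← dotProduct_mulVec]))
    (h.swap.top ho.swap (β := s - (s ⬝ᵥ E *ᵥ ψ) • r) ?_) e ?_
  · rw [← dotProduct_mulVec]
    rcases hr with hr | hr <;> simp [hr]
  · simp [h.dot, c2, dotProduct_comm α s, hs]

end S3

theorem exists_s3 (h : FL T) (hc : Cfg T)
    (hq : ∀ {u φ f η}, T u φ → u ≠ 0 → φ ≠ 0 → T f η → f ≠ 0 → η ≠ 0 → (∀ χ, T u χ → T f χ) →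
      ∀ χ, T f χ → T u χ) (h1 : T u φ) (hu : u ≠ 0) (hφ : φ ≠ 0) : ∃ E Φ, S3 T E Φ := by
  obtain ⟨x, η, b1, b2, b3⟩ := hc u φ h1 hu hφ
  obtain ⟨χ, c1, c2⟩ : ∃ χ, T x χ ∧ χ ⬝ᵥ u ≠ 0 := by
    by_contra! hn
    exact b3 (h.tb.orth (hq b1 (right_ne b3) hφ h1 hu hφ
      (fun χ p => h.cL b2 p (hn χ p) b3) η b2))
  obtain ⟨y, ζ, d1, d2, d3⟩ := hc x χ c1 (right_ne b3) (left_ne c2)
  have f1 := h.tb.subL d1 (h.full (η ⬝ᵥ y / η ⬝ᵥ x) c1)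
  have f0 : y - (η ⬝ᵥ y / η ⬝ᵥ x) • x ≠ 0 := right_ne (u := ζ) (by simpa [h.tb.orth d2] using d3)
  have f2 : η ⬝ᵥ (y - (η ⬝ᵥ y / η ⬝ᵥ x) • x) = 0 := by simp [b3]
  generalize y - (η ⬝ᵥ y / η ⬝ᵥ x) • x = f at f0 f1 f2
  have f3 : T f η := h.cL f1 b2 f2 c2
  obtain ⟨ξ, e1, e2, e3⟩ : ∃ ξ, T u ξ ∧ T x ξ ∧ ξ ⬝ᵥ f ≠ 0 := by
    by_contra! hn
    refine c2 (h.tb.orth (hq h1 hu hφ f1 f0 (left_ne c2) (fun ξ p => ?_) χ f1))
    have p1 := h.tb.subR p (h.swap.full (ξ ⬝ᵥ x / η ⬝ᵥ x) b2)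
    have p2 := h.cR p1 f1 (hn _ p1 (h.cR p1 c1 (by simp [b3]) c2)) c2
    simpa using h.tb.addR p2 (h.swap.full (ξ ⬝ᵥ x / η ⬝ᵥ x) f3)
  have o := fun {a b} (p : T a b) => h.tb.orth p
  refine ⟨of ![u, x, f], of ![(χ ⬝ᵥ u)⁻¹ • χ, (η ⬝ᵥ x)⁻¹ • η, (ξ ⬝ᵥ f)⁻¹ • ξ], h,
    show Dual ![u, x, f] ![(χ ⬝ᵥ u)⁻¹ • χ, (η ⬝ᵥ x)⁻¹ • η, (ξ ⬝ᵥ f)⁻¹ • ξ] from fun i j => ?_,
    fun i j e => ?_⟩
  · fin_cases i <;> fin_cases j <;>
      simp [c2, b3, e3, o c1, o f1, o b2, o f3, o e1, o e2]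
  · fin_cases i <;> fin_cases j <;> first | exact absurd rfl e | exact h.swap.full _ ‹_›

theorem eqc [Finite F] {P : Subgroup (GL (Fin n) F)} {k : Subfield F} (hC : CJ P k)
    (h1 : TV P u φ) (hu : u ≠ 0) (hφ : φ ≠ 0) (h2 : TV P f η) (hf : f ≠ 0) (hη : η ≠ 0)
    (h : ∀ χ, TV P u χ → TV P f χ) (χ : Fin n → F) (h3 : TV P f χ) : TV P u χ := by
  obtain ⟨g, hg, a, -, a0, e⟩ := hC _ _ h2 hf hη h1 hu hφ
  rw [← N_cg, ← N_smul_left a u φ] at e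
  obtain ⟨c, c0, e1, -⟩ := exists_smul_of_N e (smul_ne_zero a0 hu) hφ
  simp only [cg, smul_smul] at e1
  refine (Set.eq_of_subset_of_ncard_le (s := {χ | TV P u χ}) (t := {χ | TV P f χ}) h
    (Set.ncard_le_ncard_of_injOn (fun ξ => (c * a) • ξ ᵥ* (g⁻¹).val) (fun ξ p => ?_)
      fun ξ _ ξ' _ p => ?_)).ge h3
  · exact ((tb P).smul_iff _).1 (e1 ▸ TV.conj hg p)
  · simpa using congrArg (· ᵥ* g.val) (smul_right_injective _ (mul_ne_zero c0 a0) p)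

theorem tau_mem {P : Subgroup (GL (Fin n) F)} {k : Subfield F} (hS : TS P k) (hL : Lam P k)
    (hc : Cfg (TV P)) {x y z : R n F} (hx : Tv P x) (hy : Tv P y) (hz : Tv P z) :
    tau x y z ∈ k := by
  have h := tb P
  have k1 : ∀ {x : R n F}, Tv P x → tau x z y - tau x y z ∈ k := fun {x} hx => by
    have := sub_mem (add_mem (hL _ _ (h.conj (u := y.1) (φ := y.2) (w := x.1) (ψ := x.2) hy hx) hz)
      (mul_mem (hL _ _ hx hy) (hL _ _ hy hz))) (hL _ _ hx hz)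
    convert this using 1
    simp only [cc, tau, sub_dotProduct, dotProduct_add, smul_dotProduct, dotProduct_smul,
      smul_eq_mul]
    ring
  by_contra hn
  have hn' : tau x z y ∉ k := fun e => hn (by simpa using sub_mem e (k1 hx))
  have t0 : tau x y z ≠ 0 := fun e => hn (e ▸ zero_mem k)
  have t1 : tau x z y ≠ 0 := fun e => hn' (e ▸ zero_mem k)
  obtain ⟨u1, φ1⟩ := x
  obtain ⟨u2, φ2⟩ := y
  obtain ⟨u3, φ3⟩ := z
  simp only [tau, ne_eq, mul_eq_zero, not_or] at t0 t1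
  obtain ⟨⟨a12, a23⟩, a31⟩ := t0
  obtain ⟨⟨a13, a32⟩, a21⟩ := t1
  obtain ⟨v, η, b1, b2, b3⟩ := hc u1 φ1 hx (right_ne a21) (left_ne a12)
  have m2 : η ⬝ᵥ u2 / φ1 ⬝ᵥ u2 ∈ k := by
    convert div_mem (hL _ _ b2 hy) (hL _ _ hx hy) using 1
    simp only [cc]; field_simp
  have m3 : η ⬝ᵥ u3 / φ1 ⬝ᵥ u3 ∈ k := by
    convert div_mem (hL _ _ b2 hz) (hL _ _ hx hz) using 1
    simp only [cc]; field_simp
  have m4 : η ⬝ᵥ u3 / φ1 ⬝ᵥ u3 = η ⬝ᵥ u2 / φ1 ⬝ᵥ u2 := by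
    by_contra e
    refine hn ?_
    convert div_mem (sub_mem (k1 b2) (mul_mem m3 (k1 hx))) (sub_mem m3 m2) using 1
    rw [eq_div_iff (sub_ne_zero.2 e)]
    simp only [tau]; field_simp; ring
  have d1 := h.subR b2 ((h.smul_iff _).1 ((hS _ hx (right_ne a21) (left_ne a12) _).2 m2))
  have d0 : η - (η ⬝ᵥ u2 / φ1 ⬝ᵥ u2) • φ1 ≠ 0 := left_ne (w := v) (by simpa [h.orth b1] using b3)
  have d2 : (η - (η ⬝ᵥ u2 / φ1 ⬝ᵥ u2) • φ1) ⬝ᵥ u2 = 0 := by simp [a12]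
  have d3 : (η - (η ⬝ᵥ u2 / φ1 ⬝ᵥ u2) • φ1) ⬝ᵥ u3 = 0 := by simp [← m4, a13]
  have d4 := h.commL hx (h.commL hz (h.commL hy d1 d2) d3) (h.orth d1)
  refine hn' ?_
  convert (hS _ d1 (right_ne a21) d0 _).1 d4 using 1
  simp only [tau, dotProduct_smul, smul_eq_mul]; ring

theorem jobTL : JobTL.{u} := by
  intro hY F _ _ P k hP hS hL hC hA
  have hc := cfg_of hC hA
  obtain ⟨⟨u, φ⟩, y, h1, -, hu, -, hφ, -⟩ := hA
  replace hφ : φ ≠ 0 := left_ne hφ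
  refine ⟨fun g hg => ?_, fun hk g hg => ?_⟩
  · refine (hY F 5 (k.toSubring.prod ⊤) (-1) {x | Tv P x}
      {g | ∃ u φ, TV P u φ ∧ g.val = 1 + N (u, φ)} (by simp) ?_ (fun x hx y hy => ?_)
      (fun x hx => by simp [hx.1, Subring.mem_prod]) (by simp [Subring.mem_prod])
      (fun x hx y hy => ⟨⟨hL x y hx hy, trivial⟩, k.inv_mem (hL x y hx hy), trivial⟩)
      (fun x hx y hy z hz => ⟨tau_mem hS hL hc hx hy hz, trivial⟩)
      (fun _ _ _ _ _ => .inr fun _ => ⟨zero_mem k, trivial⟩) g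
      (le_genT hP (fun _ _ => id) (fun _ hg _ _ s => s.conj hg) h1 hu hφ hg)).1
    · rintro g ⟨u, φ, s, e⟩
      refine ⟨_, s, e, ?_⟩
      rw [show g = tv u φ s.1 from Units.ext e, tv_inv_val, N_neg_left, neg_one_smul]
    · simpa [sub_eq_add_neg] using (tb P).conj (u := x.1) (φ := x.2) (w := y.1) (ψ := y.2) hx hy
  · have z : ∀ u, TV P u 0 ∧ TV P 0 u := fun u =>
      ⟨⟨by simp, 1, P.one_mem, by simp⟩, by simp, 1, P.one_mem, by simp⟩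
    have fl : FL (TV P) := ⟨tb P, fun {u φ} a h => by
      by_cases c1 : u = 0
      · simpa [c1] using (z φ).2
      by_cases c2 : φ = 0
      · exact c2 ▸ (z _).1
      exact (hS _ h c1 c2 a).2 (hk ▸ Subfield.mem_top a), z⟩
    obtain ⟨E, Φ, h⟩ := exists_s3 fl hc (eqc hC) h1 hu hφ
    have := H57.sl_eq_top_of_transvections (P.comap SpecialLinearGroup.toGL) fun i j hij c => by
      have t : TV P (Pi.single i c) (Pi.single j 1) :=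
        h.all (out_tv hP h1 hu hφ) (by simp [hij.symm])
      obtain ⟨a, ha, e⟩ := t.2
      rwa [Subgroup.mem_comap, show SpecialLinearGroup.toGL (SpecialLinearGroup.transvection hij c)
        = a from Units.ext (by
          rw [e]; ext p q
          simp [SpecialLinearGroup.transvection_coe, transvection, N, vecMulVec_apply, single_apply,
            Pi.single_apply, ite_and, eq_comm]
          split_ifs <;> rfl)]
    let g' : SpecialLinearGroup (Fin 5) F := ⟨g.val, by simpa using congrArg Units.val hg⟩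
    have hm : g' ∈ P.comap SpecialLinearGroup.toGL := by rw [this]; trivial
    exact (Units.ext rfl : SpecialLinearGroup.toGL g' = g) ▸ hm

end H85.LD
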